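import Mathlib
import Cfsg.Agent.Lib.Star.Sym

/-!
# Blocks of minimal dimension are nilpotent (Linckelmann)
-/

namespace CfsgLib.Star

open Cfsg MonoidAlgebra CfsgLib.Char CfsgLib.Block CfsgLib.Blk CfsgLib.ModRep
open CfsgLib.BrPair (cS Cz Nz Ce br Fixed Supp cj fixSub IsDef mem_cS mem_Cz)
open Module (finrank)

attribute [local implicit_reducible] CfsgLib.Block.K

variable {G : Type*} [Group G] [Fintype G] {p : ℕ} [hp : Fact p.Prime]
variable {k : Type*} [Field k] [CharP k p] {S P : Subgroup G} {e : k[G]}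

/-- the double coset `S y S`. -/
def dc (S : Subgroup G) (y : G) : Set G := {x | ∃ s ∈ S, ∃ t ∈ S, s * y * t = x}

omit [Fintype G] in
theorem mul_mem_dc {y x s t : G} (hx : x ∈ dc S y) (hs : s ∈ S) (ht : t ∈ S) :
    s * x * t ∈ dc S y := by
  obtain ⟨a, ha, b, hb, rfl⟩ := hx
  exact ⟨s * a, S.mul_mem hs ha, b * t, S.mul_mem hb ht, by group⟩

omit [Fintype G] in
theorem mul_mem_dc_iff {y x s t : G} (hs : s ∈ S) (ht : t ∈ S) :
    s * x * t ∈ dc S y ↔ x ∈ dc S y :=
  ⟨fun h => by simpa [mul_assoc] using mul_mem_dc h (S.inv_mem hs) (S.inv_mem ht),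
    fun h => mul_mem_dc h hs ht⟩

omit [Fintype G] in
theorem dc_eq {y x : G} (hx : x ∈ dc S y) : dc S x = dc S y := by
  ext z
  refine ⟨fun ⟨s, hs, t, ht, h⟩ => h ▸ mul_mem_dc hx hs ht, ?_⟩
  obtain ⟨a, ha, b, hb, rfl⟩ := hx
  rintro ⟨s, hs, t, ht, rfl⟩
  exact ⟨s * a⁻¹, S.mul_mem hs (S.inv_mem ha), b⁻¹ * t, S.mul_mem (S.inv_mem hb) ht, by group⟩

omit [Fintype G] in
theorem ncard_dc_mul (S : Subgroup G) (y : G) :
    (dc S y).ncard * Nat.card (S ⊓ cS y S : Subgroup G) = Nat.card S ^ 2 := by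
  classical
  let _ : MulAction (S × S) G :=
    { smul := fun a x => a.1 * x * (a.2 : G)⁻¹
      one_smul := fun x => by change (1 : G) * x * (1 : G)⁻¹ = x; simp
      mul_smul := fun a b x => by
        change ((a.1 : G) * b.1) * x * ((a.2 : G) * b.2)⁻¹ = a.1 * (b.1 * x * (b.2 : G)⁻¹) * (a.2 : G)⁻¹
        group }
  have hsm : ∀ (a : S × S) (x : G), a • x = a.1 * x * (a.2 : G)⁻¹ := fun _ _ => rfl
  have h1 : MulAction.orbit (S × S) y = dc S y := by
    ext x
    exact ⟨fun ⟨a, ha⟩ => ⟨a.1, a.1.2, (a.2 : G)⁻¹, S.inv_mem a.2.2, ha⟩,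
      fun ⟨s, hs, t, ht, h⟩ => ⟨(⟨s, hs⟩, ⟨t⁻¹, S.inv_mem ht⟩), by simpa [hsm] using h⟩⟩
  have h2 : Nat.card (MulAction.stabilizer (S × S) y) = Nat.card (S ⊓ cS y S : Subgroup G) := by
    refine Nat.card_congr ⟨fun a => ⟨a.1.1, a.1.1.2, mem_cS.2 ?_⟩,
      fun s => ⟨(⟨s, s.2.1⟩, ⟨y⁻¹ * s * y, mem_cS.1 s.2.2⟩), ?_⟩, fun a => ?_, fun s => rfl⟩
    · have h : (a.1.1 : G) * y * (a.1.2 : G)⁻¹ = y := a.2
      rw [mul_inv_eq_iff_eq_mul] at h
      rw [mul_assoc, h, inv_mul_cancel_left]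
      exact a.1.2.2
    · change (s : G) * y * (y⁻¹ * s * y)⁻¹ = y
      group
    · have h : (a.1.1 : G) * y * (a.1.2 : G)⁻¹ = y := a.2
      rw [mul_inv_eq_iff_eq_mul] at h
      refine Subtype.ext (Prod.ext rfl (Subtype.ext ?_))
      change y⁻¹ * a.1.1 * y = a.1.2
      rw [mul_assoc, h, inv_mul_cancel_left]
  rw [← h1, ← h2, sq, ← Nat.card_prod, ← Nat.card_coe_set_eq, ← Nat.card_prod]
  exact Nat.card_congr (MulAction.orbitProdStabilizerEquivGroup (S × S) y)

/-- `S × S`-invariant elements. -/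
def Bi (S : Subgroup G) (a : k[G]) : Prop :=
  ∀ s ∈ S, ∀ t ∈ S, ∀ x, a.coeff (s * x * t) = a.coeff x

omit [Fintype G] in
theorem coeff_single_mul_mul (s t : G) (a : k[G]) (x : G) :
    (single s (1 : k) * a * single t 1).coeff x = a.coeff (s⁻¹ * x * t⁻¹) := by
  rw [coeff_mul_single', coeff_single_mul', one_mul, mul_one, mul_assoc]

theorem exists_bi (hS : IsPGroup p S) (W : Submodule k k[G])
    (hW : ∀ s ∈ S, ∀ t ∈ S, ∀ w ∈ W, single s 1 * w * single t 1 ∈ W) {v : k[G]} (hv : v ∈ W)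
    (h0 : v ≠ 0) : ∃ w ∈ W, w ≠ 0 ∧ Bi S w := by
  let _ : DistribMulAction (S × S) k[G] :=
    { smul := fun a x => single (a.1 : G) 1 * x * single (a.2 : G)⁻¹ 1
      one_smul := fun x => by
        change single (1 : G) 1 * x * single (1 : G)⁻¹ 1 = x
        rw [inv_one, ← one_def, one_mul, mul_one]
      mul_smul := fun a b x => by
        change single ((a.1 : G) * b.1) 1 * x * single ((a.2 : G) * b.2)⁻¹ 1 =
          single (a.1 : G) 1 * (single (b.1 : G) 1 * x * single (b.2 : G)⁻¹ 1) * single (a.2 : G)⁻¹ 1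
        simp only [← mul_assoc, single_mul_single, mul_one]
        simp only [mul_assoc, single_mul_single, mul_one, mul_inv_rev]
      smul_zero := fun a => by
        change single (a.1 : G) 1 * 0 * single (a.2 : G)⁻¹ 1 = (0 : k[G])
        simp
      smul_add := fun a x y => by
        change single (a.1 : G) 1 * (x + y) * single (a.2 : G)⁻¹ 1 =
          single (a.1 : G) 1 * x * single (a.2 : G)⁻¹ 1 + single (a.1 : G) 1 * y * single (a.2 : G)⁻¹ 1
        rw [mul_add, add_mul] }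
  have hSS : IsPGroup p (S × S) := by
    obtain ⟨n, hn⟩ := IsPGroup.iff_card.1 hS
    exact IsPGroup.of_card (n := n + n) (by rw [Nat.card_prod, hn, pow_add])
  obtain ⟨w, hw, hw0, h⟩ := BrPair.exists_fixed_ne_zero hSS (BrPair.p_smul_eq_zero p)
    W.toAddSubgroup (fun a w hw => hW _ a.1.2 _ (S.inv_mem a.2.2) w hw) hv h0
  refine ⟨w, hw, hw0, fun s hs t ht x => ?_⟩
  have h1 : single s⁻¹ 1 * w * single t⁻¹ 1 = w := h (⟨s⁻¹, S.inv_mem hs⟩, ⟨t, ht⟩)
  conv_rhs => rw [← h1, coeff_single_mul_mul, inv_inv, inv_inv]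

open Classical in
/-- the double coset sum. -/
noncomputable def dcs (k : Type*) [Field k] (S : Subgroup G) (y : G) : k[G] :=
  ofFun fun x => if x ∈ dc S y then 1 else 0

open Classical in
omit [CharP k p] hp in
theorem coeff_dcs (y x : G) : (dcs k S y).coeff x = if x ∈ dc S y then 1 else 0 := coeff_ofFun _ _

omit [CharP k p] hp in
theorem Bi.eq_smul {a : k[G]} (ha : Bi S a) {y : G} (h : ∀ x, x ∉ dc S y → a.coeff x = 0) :
    a = a.coeff y • dcs k S y := ga_ext fun x => by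
  rw [coeff_smul', coeff_dcs]
  split_ifs with hx
  · obtain ⟨s, hs, t, ht, rfl⟩ := hx
    rw [ha s hs t ht, mul_one]
  · rw [h x hx, mul_zero]

omit [CharP k p] hp in
theorem Bi.eq_zero {a : k[G]} (ha : Bi S a) (h : ∀ y, a.coeff y ≠ 0 → e * dcs k S y = 0) :
    e * a = 0 := by
  classical
  let c : G → G := fun x => Quotient.out (Quotient.mk (Setoid.ker (dc S)) x)
  have hc : ∀ x, dc S (c x) = dc S x := fun x =>
    Quotient.mk_out (s := Setoid.ker (dc S)) x
  have hself : ∀ x, x ∈ dc S x := fun x => ⟨1, S.one_mem, 1, S.one_mem, by simp⟩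
  have h1 : a = ∑ y ∈ Finset.univ.image c, a.coeff y • dcs k S y := ga_ext fun x => by
    rw [coeff_sum', Finset.sum_eq_single (c x)]
    · obtain ⟨s, hs, t, ht, h2⟩ : x ∈ dc S (c x) := hc x ▸ hself x
      rw [coeff_smul', coeff_dcs, if_pos (hc x ▸ hself x), mul_one, ← ha s hs t ht (c x), h2]
    · intro y hy hne
      obtain ⟨z, -, rfl⟩ := Finset.mem_image.1 hy
      rw [coeff_smul', coeff_dcs, if_neg, mul_zero]
      intro hx
      refine hne (congrArg Quotient.out (Quotient.sound ?_))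
      exact (hc z).symm.trans (dc_eq hx).symm
    · exact fun h => (h (Finset.mem_image_of_mem c (Finset.mem_univ x))).elim
  rw [h1, Finset.mul_sum]
  refine Finset.sum_eq_zero fun y _ => ?_
  by_cases hy : a.coeff y = 0
  · rw [hy, zero_smul, mul_zero]
  · rw [mul_smul_comm, h y hy, smul_zero]

/-- a double coset `O` such that `kO → e kG` is injective and `|O| ≥ |S|²/|P|`. -/
theorem exists_dc (hS : IsPGroup p S) (he : e ∈ Z k G) (hi : IsIdempotentElem e) (h0 : e ≠ 0) :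
    ∃ y, br (S ⊓ cS y S) e ≠ 0 ∧
      ∀ a : k[G], (∀ x, x ∉ dc S y → a.coeff x = 0) → e * a = 0 → a = 0 := by
  have hz := Z_comm he
  obtain ⟨w, hw, hw0, hb⟩ := exists_bi hS (LinearMap.range (LinearMap.mulLeft k e)) (by
    rintro s - t - _ ⟨w, rfl⟩
    exact ⟨single s 1 * w * single t 1, by
      rw [LinearMap.mulLeft_apply, LinearMap.mulLeft_apply, ← mul_assoc, ← mul_assoc, hz,
        mul_assoc _ e]⟩) ⟨1, mul_one e⟩ h0
  have hw' : e * w = w := by
    obtain ⟨v, rfl⟩ := hw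
    rw [LinearMap.mulLeft_apply, ← mul_assoc, hi.eq]
  obtain ⟨y, hy, hy'⟩ : ∃ y, w.coeff y ≠ 0 ∧ e * dcs k S y ≠ 0 := by
    by_contra h
    push Not at h
    exact hw0 (hw' ▸ hb.eq_zero h)
  refine ⟨y, fun h => hy ?_, fun a ha ha' => ?_⟩
  · have h1 : Fixed (S ⊓ cS y S) (w * single y⁻¹ 1) := BrPair.fixed_iff.2 fun n hn x => by
      rw [coeff_mul_single', coeff_mul_single', inv_inv, ← hb n hn.1 (y⁻¹ * n⁻¹ * y)
        (by simpa [mul_assoc] using S.inv_mem (mem_cS.1 hn.2)) (x * y)]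
      congr 2
      group
    have h2 := BrPair.br_mul (hS.to_inf_left (K := cS y S)) (fixed_of_mem_Z he _) h1
    rw [h, zero_mul, ← mul_assoc, hw'] at h2
    simpa [coeff_mul_single'] using BrPair.trunc_eq_zero_iff.1 h2 1 (Subgroup.one_mem _)
  · by_contra ha0
    let W : Submodule k k[G] :=
      { carrier := {a | (∀ x, x ∉ dc S y → a.coeff x = 0) ∧ e * a = 0}
        add_mem' := fun ha hb => ⟨fun x hx => by rw [coeff_add', ha.1 x hx, hb.1 x hx, add_zero],
          by rw [mul_add, ha.2, hb.2, add_zero]⟩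
        zero_mem' := ⟨fun x _ => coeff_zero' x, mul_zero e⟩
        smul_mem' := fun c a ha => ⟨fun x hx => by rw [coeff_smul', ha.1 x hx, mul_zero],
          by rw [mul_smul_comm, ha.2, smul_zero]⟩ }
    obtain ⟨v, hv, hv0, hv'⟩ := exists_bi hS W (fun s hs t ht w hw => ⟨fun x hx => by
        rw [coeff_single_mul_mul]
        exact hw.1 _ fun h => hx ((mul_mem_dc_iff (S.inv_mem hs) (S.inv_mem ht)).1 h), by
        rw [← mul_assoc, ← mul_assoc, hz, mul_assoc _ e, hw.2, mul_zero, zero_mul]⟩)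
      (show a ∈ W from ⟨ha, ha'⟩) ha0
    have h1 := hv'.eq_smul hv.1
    have h2 := hv.2
    rw [h1, mul_smul_comm, smul_eq_zero] at h2
    exact hv0 (by rw [h1, h2.resolve_right hy', zero_smul])

/-- if `dim (e kG) ≤ |S|²/|P|`, then `N_G(R) = N_S(R) C_G(R)` for all `R ≤ P`. -/
theorem exists_conj_eq_of_finrank (hS : IsPGroup p S) (he : e ∈ Z k G) (hi : IsIdempotentElem e)
    (hP : IsDef p ⊤ P e) (hPS : P ≤ S)
    (hd : finrank k (LinearMap.range (LinearMap.mulLeft k e)) * Nat.card P ≤ Nat.card S ^ 2)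
    {R : Subgroup G} (hR : R ≤ P) {g : G} (hg : g ∈ Nz R) :
    ∃ s ∈ S, ∀ u ∈ R, g * u * g⁻¹ = s * u * s⁻¹ := by
  classical
  have hz := Z_comm he
  obtain ⟨y, hy, hinj⟩ := exists_dc hS he hi fun h => hP.br_ne (by rw [h, map_zero])
  have h1 := hP.card_le le_top (hS.to_inf_left (K := cS y S)) hy
  have h2 := ncard_dc_mul S y
  let X : Submodule k k[G] := Submodule.span k (MonoidAlgebra.basis G k '' dc S y)
  have hX : ∀ a, a ∈ X ↔ ∀ x, x ∉ dc S y → a.coeff x = 0 := fun a => by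
    rw [Module.Basis.mem_span_image]
    refine ⟨fun h x hx => by_contra fun h0 => hx (h (Finsupp.mem_support_iff.2 h0)),
      fun h x hx => by_contra fun h0 => Finsupp.mem_support_iff.1 hx (h x h0)⟩
  have h3 : finrank k X = (dc S y).ncard := by
    rw [show X = Submodule.span k (Set.range (MonoidAlgebra.basis G k ∘ Subtype.val)) from
      congrArg (Submodule.span k) (Set.image_eq_range (MonoidAlgebra.basis G k) (dc S y)),
      finrank_span_eq_card
      ((MonoidAlgebra.basis G k).linearIndependent.comp _ Subtype.val_injective),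
      ← Nat.card_eq_fintype_card, Nat.card_coe_set_eq]
  have h4 : finrank k (X.map (LinearMap.mulLeft k e)) = (dc S y).ncard := by
    rw [← h3, ← LinearMap.range_domRestrict]
    refine LinearMap.finrank_range_of_inj (LinearMap.ker_eq_bot.1 (LinearMap.ker_eq_bot'.2
      fun a ha => Subtype.ext (hinj a ((hX a).1 a.2) ha)))
  have h5 : X.map (LinearMap.mulLeft k e) ≤ LinearMap.range (LinearMap.mulLeft k e) :=
    LinearMap.map_le_range
  have h6 := Submodule.finrank_mono h5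
  have hP0 : 0 < Nat.card P := Nat.card_pos
  have h7 : finrank k (LinearMap.range (LinearMap.mulLeft k e)) ≤ (dc S y).ncard := by
    refine Nat.le_of_mul_le_mul_right (hd.trans ?_) hP0
    rw [← h2]
    exact Nat.mul_le_mul_left _ h1
  have h8 := Submodule.eq_of_le_of_finrank_le h5 (h4 ▸ h7)
  have h9 : ∀ {R : Subgroup G}, R ≤ P → ∀ {g}, g ∈ Nz R → ∃ x ∈ dc S y, x * g⁻¹ ∈ Cz R := by
    intro R hR g hg
    obtain ⟨a, ha, ha'⟩ : e * single g 1 ∈ X.map (LinearMap.mulLeft k e) :=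
      h8 ▸ LinearMap.mem_range_self _ _
    rw [LinearMap.mulLeft_apply] at ha'
    have h10 : Fixed R (a * single g⁻¹ 1) := fun n hn => by
      have hn' : g⁻¹ * n⁻¹ * g ∈ R := by
        simpa using (BrPair.mem_Nz.1 ((Nz R).inv_mem hg) n⁻¹).1 (R.inv_mem hn)
      have h11 : single n 1 * a * single (g⁻¹ * n⁻¹ * g) 1 - a = 0 := by
        refine hinj _ (fun x hx => ?_) ?_
        · rw [coeff_sub', coeff_single_mul_mul, (hX a).1 ha x hx, (hX a).1 ha _ fun h => hx
            ((mul_mem_dc_iff (S.inv_mem (hPS (hR hn))) (S.inv_mem (hPS (hR hn')))).1 h), sub_zero]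
        · rw [mul_sub, ← mul_assoc, ← mul_assoc, hz, mul_assoc _ e, ha', ← mul_assoc, ← hz,
            mul_assoc, mul_assoc, single_mul_single, single_mul_single, sub_eq_zero]
          congr 2
          · group
          · simp
      rw [sub_eq_zero] at h11
      rw [BrPair.cj_eq_mul]
      conv_rhs => rw [← h11]
      simp only [mul_assoc, single_mul_single, mul_one, mul_inv_cancel]
    have h11 := BrPair.br_mul (hP.pgroup.to_le hR) (fixed_of_mem_Z he R) h10
    rw [← mul_assoc, ha', mul_assoc, single_mul_single, mul_inv_cancel, mul_one, ← one_def,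
      mul_one] at h11
    obtain ⟨x, hx, hx'⟩ := BrPair.trunc_ne_zero_iff.1 fun h => hP.br_ne_of_le hR (by
      rw [h11, show br R (a * single g⁻¹ 1) = 0 from h, mul_zero])
    rw [coeff_mul_single', inv_inv, mul_one] at hx'
    exact ⟨x * g, by_contra fun h => hx' ((hX a).1 ha _ h), by simpa using hx⟩
  obtain ⟨c, hc, hc'⟩ := h9 le_rfl (Subgroup.one_mem _)
  rw [inv_one, mul_one] at hc'
  have h10 : S ⊓ cS c⁻¹ S = P := by
    have h11 : P ≤ S ⊓ cS c⁻¹ S := fun u hu => ⟨hPS hu, mem_cS.2 (by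
      rw [inv_inv, ← mem_Cz.1 hc' u hu, mul_inv_cancel_right]; exact hPS hu)⟩
    refine (Subgroup.eq_of_le_of_card_ge h11 ?_).symm
    have h12 := ncard_dc_mul S c
    rw [dc_eq hc] at h12
    have h13 : Nat.card (S ⊓ cS c⁻¹ S : Subgroup G) = Nat.card (S ⊓ cS c S : Subgroup G) := by
      rw [← BrPair.card_cS c, BrPair.cS_inf, BrPair.cS_cS_inv, inf_comm]
    have h14 : 0 < (dc S y).ncard := (Set.ncard_pos).2 ⟨c, hc⟩
    rw [h13, Nat.eq_of_mul_eq_mul_left h14 (h12.trans h2.symm)]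
    exact h1
  obtain ⟨x, hx, hx'⟩ := h9 hR hg
  obtain ⟨s, hs, t, ht, rfl⟩ : x ∈ dc S c := dc_eq hc ▸ hx
  refine ⟨s * t, S.mul_mem hs ht, fun u hu => ?_⟩
  have h11 : g * u * g⁻¹ ∈ R := (BrPair.mem_Nz.1 hg u).1 hu
  have h12 : g * u * g⁻¹ = s * (c * (t * u * t⁻¹) * c⁻¹) * s⁻¹ := by
    have := mem_Cz.1 hx' _ h11
    calc g * u * g⁻¹ = g * u * g⁻¹ * (s * c * t * g⁻¹) * (s * c * t * g⁻¹)⁻¹ := by group
      _ = _ := by rw [this]; group
  have h13 : t * u * t⁻¹ ∈ P := by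
    rw [← h10]
    refine ⟨S.mul_mem (S.mul_mem ht (hPS (hR hu))) (S.inv_mem ht), mem_cS.2 ?_⟩
    have h14 := S.mul_mem (S.mul_mem (S.inv_mem hs) (hPS (hR h11))) hs
    rw [h12] at h14
    simpa [mul_assoc] using h14
  rw [h12, ← mem_Cz.1 hc' _ h13]
  group

omit [CharP k p] hp in
theorem finrank_range_eB {M : Ideal AlgInt} (hM : IsPModular p M) {B : Set (IrrCharacter G)}
    (hB : IsPBlock M B) : finrank (K hM) (LinearMap.range (LinearMap.mulLeft (K hM) (eB hM B))) =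
      ∑ χ ∈ bf B, charDegree (χ : G → ℂ) ^ 2 := by
  have h1 := finrank_corner hM (blockIdem_mem_OG hM hB) (one_mem _) (blockIdem_mul_self B)
    IsIdempotentElem.one
  have h2 : LinearMap.mulLeftRight (K hM) (redA hM (blockIdem B), redA hM (1 : ℂ[G])) =
      LinearMap.mulLeft (K hM) (eB hM B) := LinearMap.ext fun x => by
    rw [LinearMap.mulLeftRight_apply, redA_one, mul_one]
    rfl
  rw [h2, classFun_eq_sum (isClassFunction_pc (1 : ℂ[G])), chiA_sum_left] at h1
  have h3 : ∀ χ : IrrCharacter G, chiA (classInner (pc (1 : ℂ[G])) χ • (χ : G → ℂ)) (blockIdem B) =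
      if χ ∈ bf B then ((charDegree (χ : G → ℂ) ^ 2 : ℕ) : ℂ) else 0 := fun χ => by
    rw [chiA_smul_left, classInner_pc _ (isGenChar_of_isIrr χ.2), ← mul_one (blockIdem B)]
    split_ifs with h
    · rw [chiA_blockIdem_mul_of_mem (mem_bf.1 h), chiA_one, Nat.cast_pow,
        charDegree_eq (irr_isCharacter χ), sq]
    · rw [chiA_blockIdem_mul_of_notMem fun h' => h (mem_bf.2 h'), mul_zero]
  simp only [h3, Finset.sum_ite_mem, Finset.univ_inter] at h1
  exact_mod_cast h1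

end CfsgLib.Star
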